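-- Team project OELP (S5988, helper44), package [DIVE] (helper25):
-- port of helper84's OHYP [DIV] to the standing hypotheses without `2 ≠ 0`.
import Mathlib
import Cfsg.Agent.Lib.Helper44.OElp.Defs
import Cfsg.Agent.Lib.Helper84.OHyp.Div

set_option autoImplicit false

namespace Cfsg.Agent.Lib.Helper25.OElp

open Cfsg.Agent.Lib.Helper23.OHyp Cfsg.Agent.Lib.Helper44.OElp Cfsg.Agent.Lib.Helper84.OHyp Matrix

universe u

/-- [DIVE] -/
theorem pkgDivE_of (hB : PkgBlkE.{u}) (hP : PkgPerp.{u}) (hS : PkgSumE.{u}) : PkgDivE.{u} := by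
  intro F _ _ ι _ _ Q r x hstd
  classical
  have hi0 : 0 < ordI (Fintype.card F) r := ordI_pos hstd.prime hstd.ndvd
  have hceven : Even (cc (Fintype.card F) r) := cc_even _ _
  have hc0 : 0 < cc (Fintype.card F) r := cc_pos hstd.prime hstd.ndvd
  have hdet : IsUnit x.det := by
    have h1 : x.det ^ r = 1 := by rw [← Matrix.det_pow, hstd.pow, Matrix.det_one]
    exact IsUnit.of_pow_eq_one h1 hstd.prime.ne_zero
  intro W
  induction' hn : Module.finrank F W using Nat.strong_induction_on with n ih generalizing W
  intro hWm hWi hWn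
  by_cases hbot : W = ⊥
  · subst hbot
    have h0 : n = 0 := by rw [← hn]; exact finrank_bot F (ι → F)
    subst h0
    refine ⟨dvd_zero _, ?_⟩
    constructor
    · intro _
      right
      rw [Nat.zero_div]
      exact Even.zero
    · intro _
      refine ⟨⊥, le_refl _, ?_, ?_⟩
      · intro w hw
        rw [Submodule.mem_bot] at hw
        rw [hw]
        have := hstd.nondeg.smul 0 0
        rw [zero_smul] at this
        rw [this]; ring
      · rw [finrank_bot]
  · obtain ⟨D, hDW, hDi, hDn, hDdim, hDplus⟩ := hB F ι Q r x hstd W hWm hWi hWn hbot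
    obtain ⟨W', hW'W, hW'i, hW'n, hperp, hsup, hdim⟩ :=
      hP F ι Q hstd.nondeg x hstd.isom hdet W D hDW hWi hDi hWn hDn
    have hnW : n = cc (Fintype.card F) r + Module.finrank F W' := by
      rw [← hn, hdim, hDdim]
    have hlt : Module.finrank F W' < n := by omega
    obtain ⟨ih1, ih2⟩ := ih _ hlt W' rfl (hW'W.trans hWm) hW'i hW'n
    obtain ⟨-, -, hs3⟩ := hS F ι Q hstd.nondeg D W' hDn hW'n hperp
    have hDe : Even (Module.finrank F D) := by rw [hDdim]; exact hceven
    have hW'e : Even (Module.finrank F W') :=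
      even_iff_two_dvd.mpr ((even_iff_two_dvd.mp hceven).trans ih1)
    have hplus := hs3 hDe hW'e
    rw [hsup] at hplus
    refine ⟨?_, ?_⟩
    · rw [hnW]; exact dvd_add (dvd_refl _) ih1
    · rw [hplus, hDplus, ih2]
      by_cases hodd : Odd (ordI (Fintype.card F) r)
      · simp [hodd]
      · have heven : Even (ordI (Fintype.card F) r) := Nat.not_odd_iff_even.mp hodd
        have hci : cc (Fintype.card F) r = ordI (Fintype.card F) r := cc_eq_of_even heven
        obtain ⟨t, ht⟩ := ih1
        have h1 : Module.finrank F W' / ordI (Fintype.card F) r = t := by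
          rw [ht, hci]; exact Nat.mul_div_cancel_left _ hi0
        have h2 : n / ordI (Fintype.card F) r = t + 1 := by
          rw [hnW, ht, hci, Nat.add_mul_div_left _ _ hi0, Nat.div_self hi0]; ring
        rw [h1, h2, Nat.even_add_one]
        tauto

end Cfsg.Agent.Lib.Helper25.OElp
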