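-- Team project OELP (S5988, helper44), package [SPLITE] (helper25):
-- port of helper97's OHYP [SPLIT] to the standing hypotheses without `2 ≠ 0`.
import Mathlib
import Cfsg.Agent.Lib.Helper44.OElp.Defs
import Cfsg.Agent.Lib.Helper97.OHyp.Split

set_option autoImplicit false

namespace Cfsg.Agent.Lib.Helper25.OElp

open Cfsg.Agent.Lib.Helper23.OHyp Cfsg.Agent.Lib.Helper44.OElp Cfsg.Agent.Lib.Helper97.OHyp Matrix

universe u

section main

variable {F : Type u} [Field F] {ι : Type} [Fintype ι] [DecidableEq ι]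

variable [Fintype F] {Q : (ι → F) → F} {r : ℕ} {x : Matrix ι ι F}

theorem toLin'_pow_rE (hS : StdE Q r x) : (Matrix.toLin' x) ^ r = 1 := by
  rw [toLin'_pow_eq, hS.pow, Matrix.toLin'_one]
  rfl

theorem polar_toLin'E (hS : StdE Q r x) (u v : ι → F) :
    QuadraticMap.polar Q (Matrix.toLin' x u) (Matrix.toLin' x v) = QuadraticMap.polar Q u v := by
  unfold QuadraticMap.polar
  rw [← map_add, Matrix.toLin'_apply, Matrix.toLin'_apply, Matrix.toLin'_apply, hS.isom,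
    hS.isom, hS.isom]

theorem perp_fix_movE (hS : StdE Q r x) : Perp Q (fixSp x) (movSp x) := by
  intro u hu v hv
  obtain ⟨w, rfl⟩ := mem_movSp.mp hv
  rw [mem_fixSp] at hu
  have h := polar_toLin'E hS u w
  rw [hu] at h
  rw [polar_sub_right hS.nondeg.polar_bilinear, h, sub_self]

theorem fix_inf_movE (hS : StdE Q r x) : fixSp x ⊓ movSp x = ⊥ := by
  rw [Submodule.eq_bot_iff]
  intro v hv
  obtain ⟨hvC, hvN⟩ := Submodule.mem_inf.mp hv
  rw [mem_fixSp] at hvC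
  obtain ⟨z, rfl⟩ := mem_movSp.mp hvN
  have h1 := avg_fix (Matrix.toLin' x) r hS.ne hvC
  rw [map_sub, avg_T _ _ (toLin'_pow_rE hS), sub_self] at h1
  exact h1.symm

theorem split_WE (hS : StdE Q r x) (W : Submodule F (ι → F)) (hInv : Inv x W) (hNd : Nd Q W) :
    Nd Q (W ⊓ fixSp x) ∧ Nd Q (W ⊓ movSp x) ∧ Inv x (W ⊓ movSp x) ∧
      (W ⊓ fixSp x) ⊔ (W ⊓ movSp x) = W ∧
      Module.finrank F W = Module.finrank F ↥(W ⊓ fixSp x) + Module.finrank F ↥(W ⊓ movSp x) := by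
  have hTr : (Matrix.toLin' x) ^ r = 1 := toLin'_pow_rE hS
  have hB := hS.nondeg.polar_bilinear
  have hWT : ∀ w ∈ W, Matrix.toLin' x w ∈ W := fun w hw => hInv (Submodule.mem_map_of_mem hw)
  have hperp := perp_fix_movE hS
  have hE1 : ∀ w ∈ W, avg (Matrix.toLin' x) r w ∈ W ⊓ fixSp x := fun w hw =>
    Submodule.mem_inf.mpr ⟨avg_mem _ r W hWT hw, mem_fixSp.mpr (T_avg _ r hTr w)⟩
  have hE2 : ∀ w ∈ W, w - avg (Matrix.toLin' x) r w ∈ W ⊓ movSp x := fun w hw =>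
    Submodule.mem_inf.mpr ⟨W.sub_mem hw (avg_mem _ r W hWT hw), sub_avg_mem _ r hS.ne w⟩
  have hsup : (W ⊓ fixSp x) ⊔ (W ⊓ movSp x) = W := by
    apply le_antisymm
    · exact sup_le inf_le_left inf_le_left
    · intro w hw
      rw [Submodule.mem_sup]
      exact ⟨_, hE1 w hw, _, hE2 w hw, by abel⟩
  have hinf : (W ⊓ fixSp x) ⊓ (W ⊓ movSp x) = ⊥ :=
    le_bot_iff.mp ((inf_le_inf inf_le_right inf_le_right).trans (fix_inf_movE hS).le)
  refine ⟨?_, ?_, ?_, hsup, ?_⟩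
  · intro w hw hw0
    obtain ⟨hwW, hwC⟩ := Submodule.mem_inf.mp hw
    obtain ⟨⟨y, hy, hy0⟩, -⟩ := hNd w hwW hw0
    have key : QuadraticMap.polar Q (avg (Matrix.toLin' x) r y) w ≠ 0 := by
      have h1 : QuadraticMap.polar Q (y - avg (Matrix.toLin' x) r y) w = 0 := by
        rw [QuadraticMap.polar_comm]
        exact hperp w hwC _ (Submodule.mem_inf.mp (hE2 y hy)).2
      rw [polar_sub_left hB] at h1
      rw [← sub_eq_zero.mp h1]
      exact hy0
    exact ⟨⟨_, hE1 y hy, key⟩, ⟨_, hE1 y hy, by rw [QuadraticMap.polar_comm]; exact key⟩⟩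
  · intro w hw hw0
    obtain ⟨hwW, hwN⟩ := Submodule.mem_inf.mp hw
    obtain ⟨⟨y, hy, hy0⟩, -⟩ := hNd w hwW hw0
    have key : QuadraticMap.polar Q (y - avg (Matrix.toLin' x) r y) w ≠ 0 := by
      have h1 : QuadraticMap.polar Q (avg (Matrix.toLin' x) r y) w = 0 :=
        hperp _ (Submodule.mem_inf.mp (hE1 y hy)).2 w hwN
      rw [polar_sub_left hB, h1, sub_zero]
      exact hy0
    exact ⟨⟨_, hE2 y hy, key⟩, ⟨_, hE2 y hy, by rw [QuadraticMap.polar_comm]; exact key⟩⟩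
  · rintro _ ⟨w, hw, rfl⟩
    obtain ⟨hwW, hwN⟩ := Submodule.mem_inf.mp hw
    exact Submodule.mem_inf.mpr ⟨hWT w hwW, inv_movSp x (Submodule.mem_map_of_mem hwN)⟩
  · have h := Submodule.finrank_sup_add_finrank_inf_eq (W ⊓ fixSp x) (W ⊓ movSp x)
    rw [hinf, finrank_bot, add_zero, hsup] at h
    exact h

/-- [SPLITE] -/
theorem pkgSplitE : PkgSplitE.{u} := by
  intro F _ _ ι _ _ Q r x hS
  have hTop := split_WE hS ⊤ (fun _ _ => Submodule.mem_top) (by
    intro w _ hw0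
    obtain ⟨⟨y, hy⟩, ⟨z, hz⟩⟩ := hS.nondeg.nondegenerate w hw0
    exact ⟨⟨y, Submodule.mem_top, hy⟩, ⟨z, Submodule.mem_top, hz⟩⟩)
  simp only [top_inf_eq] at hTop
  obtain ⟨h1, h2, -, h4, -⟩ := hTop
  exact ⟨h1, h2, perp_fix_movE hS, IsCompl.of_eq (fix_inf_movE hS) h4, inv_movSp x,
    fun W hInv hNd => split_WE hS W hInv hNd⟩

end main

end Cfsg.Agent.Lib.Helper25.OElp
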