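-- Team project OELP (S5988, helper44), package [CNTWITTE] (helper25):
-- port of helper88's OHYP [CNTWITT] to elliptic spaces and the standing hypotheses without
-- `2 ≠ 0` (the isometry between the two elliptic spaces comes from [ELLISOE]).
import Mathlib
import Cfsg.Agent.Lib.Helper44.OElp.Defs
import Cfsg.Agent.Lib.Helper88.OHyp.CntWitt

set_option autoImplicit false
open scoped MatrixGroups
open Matrix

namespace Cfsg.Agent.Lib.Helper25.OElp

open Cfsg.Agent.Lib.Helper23.OHyp Cfsg.Agent.Lib.Helper44.OElp Cfsg.Agent.Lib.Helper99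
  Cfsg.Agent.Lib.Helper88.OHyp Module QuadraticMap

universe u

/-- [CNTWITTE] -/
theorem pkgCntWittE_of (hSplit : PkgSplitE.{u}) (hIso : PkgEllIsoE.{u}) : PkgCntWittE.{u} := by
  intro F _ _ ι _ _ Q r x hStd m hmEven W W' hWC hW'C
  classical
  obtain ⟨hNdC, -, hPerp, hCompl, -, -⟩ := hSplit F ι Q r x hStd
  obtain ⟨φ₀', hφ₀'⟩ := hIso F ι Q hStd.nondeg W.1 W'.1 W.2.2.1 W'.2.2.1
    (by rw [W.2.1, W'.2.1]) (by rw [W.2.1]; exact hmEven) W.2.2.2 W'.2.2.2
  obtain ⟨Q', hQQ, hQ'⟩ := exists_qf hStd.nondeg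
  subst hQQ
  obtain ⟨W, hWm, hWnd, hWnp⟩ := W
  obtain ⟨W', hW'm, hW'nd, hW'np⟩ := W'
  simp only at hWC hW'C φ₀' hφ₀' ⊢
  obtain ⟨φ₀, hφ₀⟩ : ∃ φ₀ : W ≃ₗ[F] W', ∀ w : W, Q' (φ₀ w : ι → F) = Q' (w : ι → F) :=
    ⟨φ₀', hφ₀'⟩
  -- the quadratic space `fixSp x`
  have hQCpolar : ∀ u v : ↥(fixSp x), QuadraticMap.polar (Q'.comp (fixSp x).subtype) u v =
      QuadraticMap.polar Q' (u : ι → F) (v : ι → F) := by
    intro u v
    simp [QuadraticMap.polar]
  have hQCnd : (QuadraticMap.polarBilin (Q'.comp (fixSp x).subtype)).Nondegenerate := by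
    refine ⟨?_, ?_⟩
    · intro u hu
      by_contra hne
      have hne' : (u : ι → F) ≠ 0 := fun h => hne (Subtype.ext h)
      obtain ⟨-, ⟨y, hy, hy'⟩⟩ := hNdC (u : ι → F) u.2 hne'
      apply hy'
      have := hu ⟨y, hy⟩
      rw [QuadraticMap.polarBilin_apply_apply, hQCpolar] at this
      exact this
    · intro u hu
      by_contra hne
      have hne' : (u : ι → F) ≠ 0 := fun h => hne (Subtype.ext h)
      obtain ⟨⟨y, hy, hy'⟩, -⟩ := hNdC (u : ι → F) u.2 hne'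
      apply hy'
      have := hu ⟨y, hy⟩
      rw [QuadraticMap.polarBilin_apply_apply, hQCpolar] at this
      exact this
  -- Witt inside `fixSp x`
  obtain ⟨gC, hgCQ, hgCφ⟩ := Cfsg.Agent.S0750.result (Q'.comp (fixSp x).subtype) hQCnd
    (W.comap (fixSp x).subtype) (W'.comap (fixSp x).subtype)
    ((Submodule.comapSubtypeEquivOfLe hWC).trans
      (φ₀.trans (Submodule.comapSubtypeEquivOfLe hW'C).symm))
    (by
      intro y
      have := hφ₀ (Submodule.comapSubtypeEquivOfLe hWC y)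
      simpa using this)
  -- extension by the identity on `movSp x`
  set G : (ι → F) →ₗ[F] (ι → F) :=
    LinearMap.ofIsCompl hCompl ((fixSp x).subtype ∘ₗ (gC : ↥(fixSp x) →ₗ[F] ↥(fixSp x)))
      (movSp x).subtype with hGdef
  have hG_C : ∀ u : ↥(fixSp x), G (u : ι → F) = (gC u : ι → F) := fun u => by
    rw [hGdef, LinearMap.ofIsCompl_apply_left]; rfl
  have hG_N : ∀ n ∈ movSp x, G n = n := fun n hn => by
    have := LinearMap.ofIsCompl_apply_right hCompl
      (φ := (fixSp x).subtype ∘ₗ (gC : ↥(fixSp x) →ₗ[F] ↥(fixSp x)))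
      (ψ := (movSp x).subtype) ⟨n, hn⟩
    exact this
  have hGiso : ∀ v, Q' (G v) = Q' v := by
    intro v
    have hv : v ∈ fixSp x ⊔ movSp x := by rw [hCompl.sup_eq_top]; trivial
    obtain ⟨c, hc, n, hn, rfl⟩ := Submodule.mem_sup.mp hv
    have h1 : G (c + n) = (gC ⟨c, hc⟩ : ι → F) + n := by
      rw [map_add, hG_N n hn]
      congr 1
      exact hG_C ⟨c, hc⟩
    have h2 : Q' ((gC ⟨c, hc⟩ : ↥(fixSp x)) : ι → F) = Q' c := by
      have := hgCQ ⟨c, hc⟩
      simpa using this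
    rw [h1, QuadraticMap.map_add (⇑Q') ((gC ⟨c, hc⟩ : ↥(fixSp x)) : ι → F) n,
      QuadraticMap.map_add (⇑Q') c n, h2,
      hPerp _ (gC ⟨c, hc⟩).2 n hn, hPerp c hc n hn]
  -- the matrix
  set A : Matrix ι ι F := LinearMap.toMatrix' G with hAdef
  have hAG : ∀ v, A *ᵥ v = G v := fun v => by
    rw [← Matrix.toLin'_apply, hAdef, Matrix.toLin'_toMatrix']
  have hAiso : ∀ v, Q' (A *ᵥ v) = Q' v := fun v => by rw [hAG, hGiso]
  have hAinj : Function.Injective A.mulVec := by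
    intro a b hab
    have h0 : A *ᵥ (a - b) = 0 := by rw [Matrix.mulVec_sub]; exact sub_eq_zero.mpr hab
    have h1 : ∀ y, QuadraticMap.polarBilin Q' (a - b) y = 0 := by
      intro y
      rw [QuadraticMap.polarBilin_apply_apply, ← polar_isom hAiso, h0]
      simp [QuadraticMap.polar]
    exact sub_eq_zero.mp (hQ'.1 _ h1)
  have hAunit : IsUnit A := Matrix.mulVec_injective_iff_isUnit.mp hAinj
  refine ⟨hAunit.unit, ?_, ?_, ?_⟩
  · intro u v
    show Q' ((hAunit.unit : Matrix ι ι F) *ᵥ u) = Q' u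
    rw [IsUnit.unit_spec, hAiso]
  · intro v hv
    rw [IsUnit.unit_spec, hAG, hG_N v hv]
  · rw [IsUnit.unit_spec]
    have hle : W.map (Matrix.toLin' A) ≤ W' := by
      rintro _ ⟨w, hw, rfl⟩
      rw [Matrix.toLin'_apply, hAG]
      have h1 := hgCφ ⟨⟨w, hWC hw⟩, hw⟩
      have h2 : G w = (gC ⟨w, hWC hw⟩ : ι → F) := hG_C ⟨w, hWC hw⟩
      rw [h2]
      have h3 : (gC ⟨w, hWC hw⟩ : ι → F) = (φ₀ ⟨w, hw⟩ : ι → F) := by
        have h4 : (gC ⟨w, hWC hw⟩ : ι → F) =
            ↑(φ₀ ((Submodule.comapSubtypeEquivOfLe hWC) ⟨⟨w, hWC hw⟩, hw⟩)) := by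
          simpa using congrArg (fun t : ↥(fixSp x) => (t : ι → F)) h1
        exact h4
      rw [h3]
      exact (φ₀ ⟨w, hw⟩).2
    apply Submodule.eq_of_le_of_finrank_eq hle
    have hinj : Function.Injective (Matrix.toLin' A) := by
      intro a b hab
      apply hAinj
      simpa [Matrix.toLin'_apply] using hab
    rw [← (Submodule.equivMapOfInjective _ hinj W).finrank_eq, hWm, hW'm]

end Cfsg.Agent.Lib.Helper25.OElp
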